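import Mathlib
import Cfsg.Agent.Lib.CFun.MinFail

/-!
Control of transfer by the pair `C(Z(S))`, `N(W(S))`: reduction to a local condition.
-/

set_option autoImplicit false
set_option linter.unusedSectionVars false
set_option maxHeartbeats 400000

namespace CfsgLib.Foc3

open Subgroup Cfsg CfsgLib.Tech CfsgLib.CFun
open scoped commutatorElement

universe u

variable {G G' : Type u} [Group G] [Group G'] {p : ℕ} {W : ∀ (Q : Type u) [Group Q], Subgroup Q}

/-- The part of the focal subgroup seen in `C_H(Z(S))` and `N_H(W(S))`. -/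
def FF (W : ∀ (Q : Type u) [Group Q], Subgroup Q) (H S : Subgroup G) : Subgroup G :=
  (S ⊓ ⁅H ⊓ 𝐂(S ⊓ 𝐂(S)), H ⊓ 𝐂(S ⊓ 𝐂(S))⁆) ⊔
    (S ⊓ ⁅H ⊓ 𝐍(inducedFunctor W S), H ⊓ 𝐍(inducedFunctor W S)⁆)

/-- The pair controls transfer in `H`. -/
def Ctl (p : ℕ) (W : ∀ (Q : Type u) [Group Q], Subgroup Q) (H : Subgroup G) : Prop :=
  ∀ S, IsSylowIn p S H → S ⊓ ⁅H, H⁆ ≤ FF W H S

theorem FF_le_inf (H S : Subgroup G) : FF W H S ≤ S ⊓ ⁅H, H⁆ :=
  sup_le (inf_le_inf_left _ (commutator_mono inf_le_left inf_le_left))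
    (inf_le_inf_left _ (commutator_mono inf_le_left inf_le_left))

theorem FF_mono {H K : Subgroup G} (h : H ≤ K) (S : Subgroup G) : FF W H S ≤ FF W K S :=
  sup_le_sup (inf_le_inf_left _ (commutator_mono (inf_le_inf_right _ h) (inf_le_inf_right _ h)))
    (inf_le_inf_left _ (commutator_mono (inf_le_inf_right _ h) (inf_le_inf_right _ h)))

theorem le_cent_cen (S : Subgroup G) : S ≤ 𝐂(S ⊓ 𝐂(S)) := le_centralizer_iff.1 inf_le_right

theorem map_cent_le (f : G →* G') (A : Subgroup G) : (𝐂(A)).map f ≤ 𝐂(A.map f) := by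
  rintro _ ⟨x, hx, rfl⟩ _ ⟨a, ha, rfl⟩
  rw [← map_mul, ← map_mul, hx a ha]

theorem map_cen (f : G →* G') {S : Subgroup G} (hf : S ⊓ f.ker = ⊥) :
    (S ⊓ 𝐂(S)).map f = S.map f ⊓ 𝐂(S.map f) := by
  refine le_antisymm (le_inf (map_mono inf_le_left) ((map_mono inf_le_right).trans (map_cent_le f S))) ?_
  rintro _ ⟨⟨x, hx, rfl⟩, h⟩
  refine ⟨x, ⟨hx, fun a ha => ?_⟩, rfl⟩
  have h1 : a * x * (x * a)⁻¹ ∈ S ⊓ f.ker :=
    ⟨S.mul_mem (S.mul_mem ha hx) (S.inv_mem (S.mul_mem hx ha)), by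
      change f _ = 1
      rw [map_mul, map_inv, map_mul, map_mul, h (f a) ⟨a, ha, rfl⟩, mul_inv_cancel]⟩
  rwa [hf, mem_bot, mul_inv_eq_one] at h1

variable [Finite G] [Fact p.Prime] (hW : IsCharPFunctor.{u} p W)
include hW

theorem Ctl.ambient {H : Subgroup G} (h : Ctl p W (⊤ : Subgroup H)) : Ctl p W H := by
  intro S hS
  have hf := H.subtype_injective
  have h0 : ∀ K : Subgroup H, K ⊓ H.subtype.ker = ⊥ := fun K => by rw [ker_subtype, inf_bot_eq]
  have h1 := IsSylowIn.of_sylow_top hS.toSylow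
  have h2 := map_mono (f := H.subtype) (h _ h1)
  rw [Subgroup.map_inf _ _ _ hf, map_commutator, map_subtype_top, hS.map_toSylow] at h2
  refine h2.trans ?_
  rw [FF, Subgroup.map_sup]
  refine sup_le_sup ((map_inf_le _ _ _).trans ?_) ((map_inf_le _ _ _).trans ?_) <;>
    rw [map_commutator, hS.map_toSylow]
  · have : (⊤ ⊓ 𝐂((hS.toSylow : Subgroup H) ⊓ 𝐂((hS.toSylow : Subgroup H)))).map H.subtype ≤
        H ⊓ 𝐂(S ⊓ 𝐂(S)) := by
      refine le_inf (map_subtype_le _) ((map_mono inf_le_right).trans ((map_cent_le _ _).trans ?_))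
      rw [map_cen _ (h0 _), hS.map_toSylow]
    exact inf_le_inf_left _ (commutator_mono this this)
  · have := map_inf_norm_ind_le (singleton_char hW) hf (H := ⊤) h1.pgroup (W := W) rfl
    rw [map_subtype_top, hS.map_toSylow] at this
    exact inf_le_inf_left _ (commutator_mono this this)

theorem ctl_of_coprime_ker [Finite G'] {f : G →* G'} (hf : Function.Surjective f)
    (hk : (Nat.card f.ker).Coprime p) (h : Ctl p W (⊤ : Subgroup G')) : Ctl p W (⊤ : Subgroup G) := by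
  intro S hS
  have h0 := Core.isPGroup_inf_eq_bot_of_coprime hS.pgroup hk
  have h1 : FF W ⊤ (S.map f) ≤ (FF W ⊤ S).map f := by
    rw [FF, FF, Subgroup.map_sup]
    simp only [top_inf_eq]
    refine sup_le_sup ?_ ?_
    · rw [← map_cen f h0, ← PLocal.Constr.map_centralizer_of_coprime_ker hf hk
        (hS.pgroup.to_le inf_le_left), ← map_commutator]
      exact inf_map_le_of_coprime hS.pgroup hk (le_cent_cen S) (Core.commutator_le_of_le le_rfl le_rfl)
        (LAE.le_normalizer_commutator le_normalizer le_normalizer)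
    · rw [norm_ind_map_of_coprime hW hf hk hS.pgroup, ← map_commutator]
      exact inf_map_le_of_coprime hS.pgroup hk (cf_le_norm (isConjugacyFunctor_induced hW) hS.pgroup)
        (Core.commutator_le_of_le le_rfl le_rfl)
        (LAE.le_normalizer_commutator le_normalizer le_normalizer)
  intro s hs
  obtain ⟨t, ht, e⟩ := h1 (h _ (sylIn_map_top hS hf) ⟨⟨s, hs.1, rfl⟩, by
    have := mem_map_of_mem f hs.2
    rwa [map_commutator, map_top_of_surjective _ hf] at this⟩)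
  have h2 : t⁻¹ * s ∈ S ⊓ f.ker :=
    ⟨S.mul_mem (S.inv_mem (FF_le_inf _ _ ht).1) hs.1, by
      change f _ = 1
      rw [map_mul, map_inv, e, inv_mul_cancel]⟩
  rw [h0, mem_bot, inv_mul_eq_one] at h2
  exact h2 ▸ ht

theorem inf_commutator_le_sup {S F : Subgroup G} (hS : IsSylowIn p S ⊤)
    (hF : ∀ H, S ≤ H → H ≠ ⊤ → S ⊓ ⁅H, H⁆ ≤ F) (hq : Ctl p W (⊤ : Subgroup (G ⧸ pCore p G))) :
    S ⊓ ⁅(⊤ : Subgroup G), (⊤ : Subgroup G)⁆ ≤ F ⊔ pCore p G := by
  by_cases h3 : S ≤ pCore p G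
  · exact inf_le_left.trans (h3.trans le_sup_right)
  have hπ := QuotientGroup.mk'_surjective (pCore p G)
  set π := QuotientGroup.mk' (pCore p G) with hπdef
  have hker : π.ker = pCore p G := QuotientGroup.ker_mk' _
  have key : ∀ X : Subgroup (G ⧸ pCore p G), S.map π ≤ X → X ≠ ⊤ →
      S.map π ⊓ ⁅⊤ ⊓ X, ⊤ ⊓ X⁆ ≤ (F ⊔ π.ker).map π := fun X h1 h2 => by
    have := inf_map_le_of_ker_le (f := π) (hker.le.trans (pCore_le_sylIn hS))
      (hF _ (map_le_iff_le_comap.1 h1) fun e => h2 (by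
        rw [← map_comap_eq_self_of_surjective hπ X, e, map_top_of_surjective _ hπ]))
    rwa [map_commutator, map_comap_eq_self_of_surjective hπ, ← top_inf_eq X] at this
  have hS' := hS.pgroup.map π
  have h1 : FF W ⊤ (S.map π) ≤ (F ⊔ π.ker).map π := by
    refine sup_le (key _ (le_cent_cen _) fun e => ?_)
      (key _ (cf_le_norm (isConjugacyFunctor_induced hW) hS') fun e => ?_)
    · have hn : (S.map π ⊓ 𝐂(S.map π)).Normal :=
        normalizer_eq_top_iff.1 (top_le_iff.1 (e.ge.trans (cent_le_norm _)))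
      have h1 := Core.le_pCore (hS'.to_le (inf_le_left : S.map π ⊓ 𝐂(S.map π) ≤ _))
      rw [Core.pCore_quotient_pCore, le_bot_iff] at h1
      refine LAE.inf_centralizer_ne_bot hS' hS' le_normalizer (fun h2 => h3 ?_) h1
      rwa [Subgroup.map_eq_bot_iff, hker] at h2
    · exact comap_norm_ne_top hW hS h3 (by rw [← hπdef, e, comap_top])
  intro s hs
  have h2 := h1 (hq _ (sylIn_map_top hS hπ) ⟨⟨s, hs.1, rfl⟩, by
    have := mem_map_of_mem π hs.2
    rwa [map_commutator, map_top_of_surjective _ hπ] at this⟩)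
  rwa [← mem_comap, comap_map_eq, sup_assoc, sup_idem, hker] at h2

theorem ctl_of_local {H : Subgroup G}
    (hloc : ∀ T : Subgroup G, IsPGroup p T → T ≠ ⊥ → Ctl p W (H ⊓ 𝐍(T))) : Ctl p W H := by
  intro S hS
  have hc := isConjugacyFunctor_induced (G := G) hW
  have key := le_of_tower hc hS (· ≠ ⊥) (fun T hT h => hT.next_ne_bot hc h) (F := FF W H S)
    le_sup_right fun T hT h => (hloc T (hS.pgroup.to_le hT.le) h _ hT.extremal).trans (by
      refine sup_le (le_sup_of_le_right (le_sup_of_le_left ?_)) (le_sup_of_le_left ?_)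
      · have : H ⊓ 𝐍(T) ⊓ 𝐂(S ⊓ 𝐍(T) ⊓ 𝐂(S ⊓ 𝐍(T))) ≤ H ⊓ 𝐂(S ⊓ 𝐂(S)) :=
          inf_le_inf inf_le_left (cent_anti (le_inf (inf_le_inf_left _
            ((cent_anti hT.le).trans (cent_le_norm _))) (inf_le_right.trans (cent_anti inf_le_left))))
        exact inf_le_inf inf_le_left (commutator_mono this this)
      · exact inf_le_inf_left _
          (commutator_mono (inf_le_inf_right _ inf_le_left) (inf_le_inf_right _ inf_le_left)))
  refine focal_le_of_alperin_centric hS _ (exists_wp' hc hS) fun T hT hwp _ _ _ x hx a ha => ?_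
  by_cases h : T = ⊥
  · subst h; rw [mem_bot.1 ha]; simp
  · have h1 : x * a * x⁻¹ ∈ T := conj_mem_of_mem_normalizer hx.2 ha
    exact key T hwp h ⟨le_inf hT le_normalizer (T.mul_mem h1 (T.inv_mem ha)),
      conj_mul_inv_mem_commutator hx ⟨hS.le (hT ha), le_normalizer ha⟩⟩

omit hW in
/-- The local condition. -/
def Loc (p : ℕ) (W : ∀ (Q : Type u) [Group Q], Subgroup Q) : Prop :=
  ∀ (G : Type u) [Group G] [Finite G] (S M : Subgroup G), 𝐂(pCore p G) ≤ pCore p G →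
    IsSylowIn p S ⊤ → S ≠ ⊥ → M ≠ ⊤ → (∀ H : Subgroup G, S ≤ H → H ≠ ⊤ → H ≤ M) →
    𝐂(S ⊓ 𝐂(S)) ≤ M → 𝐍(inducedFunctor W S) ≤ M →
    ∃ L : Subgroup G, ¬ L ≤ M ∧ ⁅pCore p G, L⁆ ≤ ⁅M, M⁆

theorem ctl_step (hloc : Loc.{u} p W) (hsub : ∀ H : Subgroup G, H ≠ ⊤ → Ctl p W H)
    (hquot : ∀ (N : Subgroup G) [N.Normal], N ≠ ⊥ → Ctl p W (⊤ : Subgroup (G ⧸ N))) :
    Ctl p W (⊤ : Subgroup G) := by
  by_cases h0 : pCore p G = ⊥
  · exact ctl_of_local hW fun T hT hT0 => hsub _ (norm_ne_top_of_pCore_eq_bot h0 hT hT0)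
  by_cases h1 : pPrimeCore p G = ⊥
  swap
  · exact ctl_of_coprime_ker hW (QuotientGroup.mk'_surjective _)
      PLocal.Constr.coprime_ker_mk' (hquot _ h1)
  intro S hS
  set F := FF W ⊤ S with hF
  set Q := pCore p G with hQ
  have hK : ∀ H, S ≤ H → H ≠ ⊤ → S ⊓ ⁅H, H⁆ ≤ F := fun H h2 h3 =>
    (hsub H h3 S (hS.of_le h2 le_top)).trans (FF_mono le_top S)
  have hQS : Q ≤ S := pCore_le_sylIn hS
  have hcW := isConjugacyFunctor_induced (G := G) hW
  have hZ : S ⊓ ⁅𝐂(S ⊓ 𝐂(S)), 𝐂(S ⊓ 𝐂(S))⁆ ≤ F := by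
    rw [hF, FF, top_inf_eq]; exact le_sup_left
  have hNW : S ⊓ ⁅𝐍(inducedFunctor W S), 𝐍(inducedFunctor W S)⁆ ≤ F := by
    rw [hF, FF, top_inf_eq 𝐍(inducedFunctor W S)]; exact le_sup_right
  have hNS : S ⊓ ⁅𝐍(S), 𝐍(S)⁆ ≤ F :=
    (inf_le_inf_left _ (commutator_mono (cf_norm_le hcW hS.pgroup) (cf_norm_le hcW hS.pgroup))).trans
      hNW
  have hSS : ⁅S, S⁆ ≤ F := (le_inf (Core.commutator_le_of_le le_rfl le_rfl)
    (commutator_mono le_normalizer le_normalizer)).trans hNS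
  have hred : Q ⊓ ⁅(⊤ : Subgroup G), (⊤ : Subgroup G)⁆ ≤ F → S ⊓ ⁅(⊤ : Subgroup G), ⊤⁆ ≤ F := fun h =>
    le_of_le_sup_of_inf_le (FF_le_inf _ _) (inf_commutator_le_sup hW hS hK (hquot _ h0))
      ((inf_le_inf_left _ inf_le_right).trans h)
  by_cases hc : 𝐂(Q) ≤ Q
  swap
  · by_cases h2 : S ⊔ 𝐂(Q) = ⊤
    · refine hred ?_
      refine (inf_commutator_le_of_commutator_le hS hQS le_rfl).trans (sup_le hSS (le_trans ?_ hSS))
      rw [commutator_comm, ← h2, sup_comm, ← sup_comm S,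
        Core.commutator_sup_left_of_le_centralizer le_rfl]
      · exact commutator_mono le_rfl hQS
      · refine (cent_anti ?_).trans (cent_le_norm _)
        exact commutator_le_right _ _
    · have h3 : 𝐍(S ⊓ 𝐂(Q)) ≠ ⊤ := fun e => hc (cent_le_of_norm_eq_top hS h1 e)
      refine (fusGen_sup_cent hS hQS).focal_le hS ?_
      rintro x (hx | hx) a ha hxa
      · exact hK _ le_sup_left h2 ⟨S.mul_mem hxa (S.inv_mem ha),
          conj_mul_inv_mem_commutator hx (le_sup_left (a := S) ha)⟩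
      · have hle : S ≤ 𝐍(S ⊓ 𝐂(Q)) :=
          LAE.le_normalizer_inf le_normalizer le_normalizer_of_normal
        exact hK _ hle h3 ⟨S.mul_mem hxa (S.inv_mem ha), conj_mul_inv_mem_commutator hx (hle ha)⟩
  by_contra hG
  have hnot : ¬ Q ⊓ ⁅(⊤ : Subgroup G), (⊤ : Subgroup G)⁆ ≤ F := fun h => hG (hred h)
  set M := 𝐍(F ⊓ Q) with hM
  have hQH : ∀ H, S ≤ H → S ⊓ ⁅H, H⁆ ≤ F → ⁅Q, H⁆ ≤ F ⊓ Q := fun H h2 h3 =>
    le_inf ((le_inf ((commutator_le_left _ _).trans hQS)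
      (commutator_mono (hQS.trans h2) le_rfl)).trans h3) (commutator_le_left _ _)
  have hnm : ∀ H : Subgroup G, ⁅Q, H⁆ ≤ F ⊓ Q → H ≤ M := fun H h =>
    Core.le_normalizer_of_commutator_le ((commutator_mono inf_le_right le_rfl).trans h)
  have hmax : ∀ H : Subgroup G, S ≤ H → H ≠ ⊤ → H ≤ M := fun H h2 h3 =>
    hnm H (hQH H h2 (hK H h2 h3))
  have hM0 : M ≠ ⊤ := by
    intro h
    have hn : (F ⊓ Q).Normal := normalizer_eq_top_iff.1 (hM ▸ h)
    have h1 := hQH _ le_normalizer hNS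
    let π := QuotientGroup.mk' (F ⊓ Q)
    let D : Subgroup G := (𝐂(Q.map π)).comap π
    have hQn : (Q.map π).Normal := Normal.map inferInstance π (QuotientGroup.mk'_surjective _)
    have hD : ∀ H : Subgroup G, H ≤ D ↔ ⁅Q, H⁆ ≤ F ⊓ Q := fun H => by
      rw [commutator_comm, Core.commutator_le_iff_map_mk', map_le_iff_le_comap]
    have hND : 𝐍(S) ≤ D := (hD _).2 h1
    have h2 : ⊤ ≤ D := fun g _ => by
      obtain ⟨n, hn, hg⟩ := (hS.of_le (le_normalizer.trans hND) le_top).frattini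
        (le_normalizer_of_normal (mem_top g))
      have := D.mul_mem (D.inv_mem hn) (hND hg)
      rwa [inv_mul_cancel_left] at this
    exact hnot ((inf_commutator_le_of_commutator_le hS hQS ((hD _).1 h2)).trans
      (sup_le hSS inf_le_left))
  have hSM : S ≤ M := le_normalizer.trans (hnm _ (hQH _ le_normalizer hNS))
  obtain ⟨L, hL, hL'⟩ := hloc G S M hc hS (fun e => h0 (eq_bot_iff.2 (hQS.trans e.le))) hM0 hmax
    (hnm _ (hQH _ (le_cent_cen S) hZ)) (hnm _ (hQH _ (cf_le_norm hcW hS.pgroup) hNW))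
  exact hL (hnm L (le_inf ((le_inf ((commutator_le_left _ _).trans hQS) hL').trans (hK M hSM hM0))
    (commutator_le_left _ _)))

theorem ctl_top (hloc : Loc.{u} p W) : Ctl p W (⊤ : Subgroup G) := by
  induction' hn : Nat.card G using Nat.strong_induction_on with n ih generalizing G
  subst hn
  exact ctl_step hW hloc (fun H hH => (ih _ (Core.card_lt_of_ne_top hH) rfl).ambient hW)
    fun N _ hN => ih _ (Core.card_quotient_lt_of_ne_bot hN) rfl

end CfsgLib.Foc3
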